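import Mathlib

set_option autoImplicit false
set_option linter.unusedSectionVars false
set_option linter.unusedSimpArgs false
set_option linter.style.haveILetI false

/-!
# Sharply multiply transitive actions: involution counting (Jordan's theorems on degrees).
-/

namespace Cfsg.Agent.Lib.Sharp.Basic

open MulAction Function Finset

open scoped Classical

/-- Sharply `k`-transitive action. -/
structure IsSharp (G α : Type*) [Group G] [MulAction G α] (k : ℕ) : Prop where
  trans : ∀ x y : Fin k ↪ α, ∃ g : G, g • x = y
  free : ∀ (x : Fin k ↪ α) (g : G), g • x = x → g = 1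

variable {G α : Type*} [Group G] [MulAction G α] {k : ℕ}

theorem IsSharp.mk' (h1 : IsMultiplyPretransitive G α k)
    (h2 : ∀ x : Fin k ↪ α, stabilizer G x = ⊥) : IsSharp G α k := by
  refine ⟨fun x y => h1.exists_smul_eq x y, fun x g hg => ?_⟩
  have : g ∈ stabilizer G x := hg
  rw [h2 x] at this
  simpa using this

theorem IsSharp.free' (h : IsSharp G α k) (x : Fin k ↪ α) (g : G)
    (hg : ∀ i, g • x i = x i) : g = 1 := by
  apply h.free x
  ext i
  simpa using hg i

theorem IsSharp.card_eq [Fintype α] (h : IsSharp G α k) (hk : k ≤ Fintype.card α) :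
    Nat.card G = (Fintype.card α).descFactorial k := by
  obtain ⟨x0⟩ : Nonempty (Fin k ↪ α) := Function.Embedding.nonempty_of_card_le (by simpa using hk)
  have hb : Function.Bijective (fun g : G => g • x0) := by
    constructor
    · intro g g' hgg
      have : (g'⁻¹ * g) • x0 = x0 := by
        simp only at hgg
        rw [mul_smul, hgg, inv_smul_smul]
      have := h.free x0 _ this
      exact (inv_mul_eq_one.mp this).symm
    · intro y
      exact h.trans x0 y
  rw [Nat.card_congr (Equiv.ofBijective _ hb), Nat.card_eq_fintype_card, Fintype.card_embedding_eq]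
  simp

theorem IsSharp.finite [Finite α] (h : IsSharp G α k) (hk : Nonempty (Fin k ↪ α)) : Finite G := by
  obtain ⟨x0⟩ := hk
  have hinj : Function.Injective (fun g : G => g • x0) := by
    intro g g' hgg
    have : (g'⁻¹ * g) • x0 = x0 := by
      simp only at hgg
      rw [mul_smul, hgg, inv_smul_smul]
    have := h.free x0 _ this
    exact (inv_mul_eq_one.mp this).symm
  exact Finite.of_injective _ hinj

/-- The involutions of a finite group. -/
noncomputable def invs (G : Type*) [Group G] [Fintype G] : Finset G :=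
  univ.filter (fun t : G => t * t = 1 ∧ t ≠ 1)

/-- Fixed points. -/
noncomputable def fixF [Fintype α] (t : G) : Finset α := univ.filter (fun a : α => t • a = a)

/-- Moved points. -/
noncomputable def movM [Fintype α] (t : G) : Finset α := univ.filter (fun a : α => t • a ≠ a)

theorem card_fix_add_mov [Fintype α] (t : G) :
    (fixF t : Finset α).card + (movM t : Finset α).card = Fintype.card α := by
  have := Finset.card_filter_add_card_filter_not (s := (univ : Finset α)) (fun a : α => t • a = a)
  simpa [fixF, movM] using this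

theorem mem_fixF [Fintype α] {t : G} {a : α} : a ∈ (fixF t : Finset α) ↔ t • a = a := by
  simp [fixF]

theorem mem_movM [Fintype α] {t : G} {a : α} : a ∈ (movM t : Finset α) ↔ t • a ≠ a := by
  simp [movM]

theorem smul_smul_of_sq {t : G} (ht : t * t = 1) (a : α) : t • t • a = a := by
  rw [← mul_smul, ht, one_smul]

theorem smul_mem_movM [Fintype α] {t : G} (ht : t * t = 1) {a : α}
    (ha : a ∈ (movM t : Finset α)) : t • a ∈ (movM t : Finset α) := by
  rw [mem_movM] at ha ⊢
  rw [smul_smul_of_sq ht]
  exact fun h => ha h.symm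

section sum
variable [Fintype α] [Fintype G]

/-- Fundamental identity: for a nontrivial involution `τ` of the labels, the fibres
`{x | t • x = x ∘ τ}`, `t` an involution, partition the set of all embeddings. -/
theorem sum_fibers (h : IsSharp G α k) (τ : Equiv.Perm (Fin k)) (hτ : ∀ i, τ (τ i) = i)
    (hτ1 : ∃ i, τ i ≠ i) :
    ∑ t ∈ invs G, (univ.filter (fun x : Fin k ↪ α => ∀ i, t • x i = x (τ i))).card
      = Fintype.card (Fin k ↪ α) := by
  have key : ∀ x : Fin k ↪ α, ∃ t ∈ invs G, ∀ i, t • x i = x (τ i) := by
    intro x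
    obtain ⟨g, hg⟩ := h.trans x (τ.toEmbedding.trans x)
    have hg' : ∀ i, g • x i = x (τ i) := by
      intro i
      have := congrArg (fun y : Fin k ↪ α => y i) hg
      simpa using this
    refine ⟨g, ?_, hg'⟩
    simp only [invs, mem_filter, mem_univ, true_and]
    constructor
    · apply h.free' x
      intro i
      rw [mul_smul, hg', hg', hτ]
    · rintro rfl
      obtain ⟨i, hi⟩ := hτ1
      have := hg' i
      rw [one_smul] at this
      exact hi (x.injective this).symm
  choose Φ hΦ1 hΦ2 using key
  have huniq : ∀ (x : Fin k ↪ α) (t : G), (∀ i, t • x i = x (τ i)) → t = Φ x := by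
    intro x t ht
    have : (Φ x)⁻¹ * t = 1 := by
      apply h.free' x
      intro i
      rw [mul_smul, ht, ← hΦ2 x i, inv_smul_smul]
    exact (inv_mul_eq_one.mp this).symm
  rw [← Finset.card_univ, Finset.card_eq_sum_card_fiberwise (f := Φ) (t := invs G)
    (fun x _ => hΦ1 x)]
  apply Finset.sum_congr rfl
  intro t _
  congr 1
  ext x
  simp only [mem_filter, mem_univ, true_and]
  constructor
  · intro hx
    exact (huniq x t hx).symm
  · rintro rfl
    exact hΦ2 x

end sum

section patterns
variable [Fintype α]

/-- The label before last. -/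
def lblA (a : ℕ) : Fin (a + 2) := ⟨a, by omega⟩

/-- The last label. -/
def lblB (a : ℕ) : Fin (a + 2) := ⟨a + 1, by omega⟩

/-- The label involution swapping the last two labels of `Fin (a+2)`. -/
def tauA1 (a : ℕ) : Equiv.Perm (Fin (a + 2)) := Equiv.swap (lblA a) (lblB a)

theorem tauA1_lt {a : ℕ} (i : Fin (a + 2)) (h : i.1 < a) : tauA1 a i = i := by
  apply Equiv.swap_apply_of_ne_of_ne
  · intro h'; rw [h'] at h; simp [lblA] at h
  · intro h'; rw [h'] at h; simp [lblB] at h

theorem tauA1_a {a : ℕ} : tauA1 a (lblA a) = lblB a := Equiv.swap_apply_left _ _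

theorem tauA1_a1 {a : ℕ} : tauA1 a (lblB a) = lblA a := Equiv.swap_apply_right _ _

theorem card_fiber_a1 (t : G) (ht : t * t = 1) (a : ℕ) :
    (univ.filter (fun x : Fin (a + 2) ↪ α => ∀ i, t • x i = x (tauA1 a i))).card
      = (fixF t : Finset α).card.descFactorial a * (movM t : Finset α).card := by
  have hR : (fixF t : Finset α).card.descFactorial a * (movM t : Finset α).card
      = (univ : Finset ((Fin a ↪ {x // x ∈ (fixF t : Finset α)}) × {x // x ∈ (movM t : Finset α)})).card := by
    rw [Finset.card_univ, Fintype.card_prod, Fintype.card_embedding_eq]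
    simp
  rw [hR]
  refine Finset.card_bij' (fun x hx => (⟨fun j => ⟨x (Fin.castLE (by omega) j), ?_⟩, ?_⟩,
      ⟨x (lblA a), ?_⟩)) (fun y _ => ⟨fun i => if h : i.1 < a then (y.1 ⟨i.1, h⟩).1
      else if i.1 = a then y.2.1 else t • y.2.1, ?_⟩) ?_ ?_ ?_ ?_
  · -- fixed
    simp only [mem_filter, mem_univ, true_and] at hx
    rw [mem_fixF, hx, tauA1_lt]
    simp
  · -- injective
    intro j j' hjj
    simp only [Subtype.mk.injEq] at hjj
    have := x.injective hjj
    simpa [Fin.ext_iff] using this
  · -- moved
    simp only [mem_filter, mem_univ, true_and] at hx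
    rw [mem_movM, hx, tauA1_a]
    intro h'
    have := x.injective h'
    simp [Fin.ext_iff, lblA, lblB] at this
  · -- injectivity of the glued map
    intro i i' h
    obtain ⟨y1, y2⟩ := y
    have hy1 : ∀ j, t • ((y1 j).1) = (y1 j).1 := fun j => mem_fixF.mp (y1 j).2
    have hy2 : t • y2.1 ≠ y2.1 := mem_movM.mp y2.2
    have hy3 : t • y2.1 ∉ (fixF t : Finset α) := by
      rw [mem_fixF, smul_smul_of_sq ht]
      exact fun h => hy2 h.symm
    have hy4 : y2.1 ∉ (fixF t : Finset α) := by
      rw [mem_fixF]
      exact hy2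
    simp only at h
    by_cases hi : i.1 < a <;> by_cases hi' : i'.1 < a
    · simp only [hi, hi', dif_pos] at h
      have := y1.injective (Subtype.ext h)
      simp only [Fin.mk.injEq] at this
      exact Fin.ext this
    · exfalso
      simp only [hi, hi', dif_pos, dif_neg, not_false_eq_true] at h
      have hm : (y1 ⟨i.1, hi⟩).1 ∈ (fixF t : Finset α) := (y1 ⟨i.1, hi⟩).2
      rw [h] at hm
      split_ifs at hm
      · exact hy4 hm
      · exact hy3 hm
    · exfalso
      simp only [hi, hi', dif_pos, dif_neg, not_false_eq_true] at h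
      have hm : (y1 ⟨i'.1, hi'⟩).1 ∈ (fixF t : Finset α) := (y1 ⟨i'.1, hi'⟩).2
      rw [← h] at hm
      split_ifs at hm
      · exact hy4 hm
      · exact hy3 hm
    · simp only [hi, hi', dif_neg, not_false_eq_true] at h
      have h1 := i.2
      have h2 := i'.2
      by_cases hia : i.1 = a <;> by_cases hia' : i'.1 = a
      · exact Fin.ext (by omega)
      · simp only [hia, hia', if_true, if_false] at h
        exact absurd h.symm hy2
      · simp only [hia, hia', if_true, if_false] at h
        exact absurd h hy2
      · exact Fin.ext (by omega)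
  · intro x hx
    exact mem_univ _
  · intro y _
    simp only [mem_filter, mem_univ, true_and]
    obtain ⟨y1, y2⟩ := y
    have hy1 : ∀ j, t • ((y1 j).1) = (y1 j).1 := fun j => mem_fixF.mp (y1 j).2
    intro i
    by_cases hi : i.1 < a
    · simp only [Function.Embedding.coeFn_mk, hi, dif_pos, tauA1_lt i hi]
      exact hy1 _
    · have h1 := i.2
      by_cases hia : i.1 = a
      · have : i = lblA a := Fin.ext hia
        subst this
        rw [tauA1_a]
        simp [lblA, lblB]
      · have : i = lblB a := Fin.ext (by simp only [lblB]; omega)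
        subst this
        rw [tauA1_a1]
        simp [lblA, lblB, smul_smul_of_sq ht]
  · intro x hx
    simp only [mem_filter, mem_univ, true_and] at hx
    ext i
    simp only [Function.Embedding.coeFn_mk]
    by_cases hi : i.1 < a
    · simp only [hi, dif_pos]
      congr 1
    · have h1 := i.2
      by_cases hia : i.1 = a
      · simp only [hi, hia, dif_neg, not_false_eq_true, if_true, lt_self_iff_false]
        congr 1
        exact Fin.ext hia.symm
      · have : i = lblB a := Fin.ext (by simp only [lblB]; omega)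
        subst this
        simp only [hi, hia, dif_neg, not_false_eq_true, if_false]
        rw [hx, tauA1_a]
  · rintro ⟨y1, y2⟩ _
    ext i
    · simp
    · simp [lblA]

end patterns

section patterns2
variable [Fintype α]

/-- Two transpositions on `Fin 4`. -/
def tau02 : Equiv.Perm (Fin 4) := ⟨![1, 0, 3, 2], ![1, 0, 3, 2], by decide, by decide⟩

/-- Three transpositions on `Fin 6`. -/
def tau03 : Equiv.Perm (Fin 6) := ⟨![1, 0, 3, 2, 5, 4], ![1, 0, 3, 2, 5, 4], by decide, by decide⟩

theorem card_pair_sdiff {t : G} (ht : t * t = 1) {r : α} (hr : r ∈ (movM t : Finset α)) :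
    ((movM t : Finset α) \ {r, t • r}).card = (movM t : Finset α).card - 2 := by
  have hne : r ≠ t • r := fun h => (mem_movM.mp hr) h.symm
  rw [Finset.card_sdiff_of_subset, Finset.card_pair hne]
  intro z hz
  simp only [mem_insert, mem_singleton] at hz
  rcases hz with rfl | rfl
  · exact hr
  · exact smul_mem_movM ht hr

theorem card_fiber_02 (t : G) (ht : t * t = 1) :
    (univ.filter (fun x : Fin 4 ↪ α => ∀ i, t • x i = x (tau02 i))).card
      = (movM t : Finset α).card * ((movM t : Finset α).card - 2) := by
  have hR : (movM t : Finset α).card * ((movM t : Finset α).card - 2)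
      = ((movM t : Finset α).sigma (fun r => (movM t : Finset α) \ {r, t • r})).card := by
    rw [Finset.card_sigma, Finset.sum_congr rfl (fun r hr => card_pair_sdiff ht hr)]
    simp
  rw [hR]
  refine Finset.card_bij' (fun x _ => ⟨x 0, x 2⟩)
    (fun y hy => ⟨![y.1, t • y.1, y.2, t • y.2], ?_⟩) ?_ ?_ ?_ ?_
  · simp only [mem_sigma, mem_sdiff, mem_insert, mem_singleton, not_or] at hy
    obtain ⟨h1, h2, h3, h4⟩ := hy
    have h1' := mem_movM.mp h1
    have h2' := mem_movM.mp h2
    have h5 : t • y.2 ≠ y.1 := fun h => h4 (by rw [← h, smul_smul_of_sq ht])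
    have h6 : t • y.2 ≠ t • y.1 := fun h => h3 (smul_left_cancel t h)
    intro i j hij
    fin_cases i <;> fin_cases j <;> simp_all [eq_comm]
  · intro x hx
    simp only [mem_filter, mem_univ, true_and] at hx
    have h0 : t • x 0 = x 1 := hx 0
    have h2 : t • x 2 = x 3 := hx 2
    have h02 : x 2 ≠ x 0 := fun h => absurd (x.injective h) (by decide)
    have h12 : x 2 ≠ x 1 := fun h => absurd (x.injective h) (by decide)
    simp only [mem_sigma, mem_sdiff, mem_insert, mem_singleton, not_or, mem_movM, h0, h2]
    exact ⟨fun h => absurd (x.injective h) (by decide), fun h => absurd (x.injective h) (by decide),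
      h02, h12⟩
  · intro y hy
    simp only [mem_filter, mem_univ, true_and]
    intro i
    fin_cases i <;> simp [tau02, smul_smul_of_sq ht]
  · intro x hx
    simp only [mem_filter, mem_univ, true_and] at hx
    have h0 : t • x 0 = x 1 := hx 0
    have h2 : t • x 2 = x 3 := hx 2
    ext i
    fin_cases i <;> simp [h0, h2]
  · rintro ⟨r1, r2⟩ _
    simp

theorem card_quad_sdiff {t : G} (ht : t * t = 1) {r r' : α} (hr : r ∈ (movM t : Finset α))
    (hr' : r' ∈ (movM t : Finset α) \ {r, t • r}) :
    ((movM t : Finset α) \ {r, t • r, r', t • r'}).card = (movM t : Finset α).card - 4 := by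
  simp only [mem_sdiff, mem_insert, mem_singleton, not_or] at hr'
  obtain ⟨h1, h3, h4⟩ := hr'
  have h1' := mem_movM.mp h1
  have h2' := mem_movM.mp hr
  have h5 : t • r' ≠ r := fun h => h4 (by rw [← h, smul_smul_of_sq ht])
  have h6 : t • r' ≠ t • r := fun h => h3 (smul_left_cancel t h)
  rw [Finset.card_sdiff_of_subset]
  · congr 1
    rw [Finset.card_insert_of_notMem, Finset.card_insert_of_notMem, Finset.card_pair]
    · exact fun h => h1' h.symm
    · simp only [mem_insert, mem_singleton, not_or]
      exact ⟨fun h => h4 h.symm, fun h => h6 h.symm⟩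
    · simp only [mem_insert, mem_singleton, not_or]
      exact ⟨fun h => h2' h.symm, fun h => h3 h.symm, fun h => h5 h.symm⟩
  · intro z hz
    simp only [mem_insert, mem_singleton] at hz
    rcases hz with rfl | rfl | rfl | rfl
    · exact hr
    · exact smul_mem_movM ht hr
    · exact h1
    · exact smul_mem_movM ht h1

theorem card_fiber_03 (t : G) (ht : t * t = 1) :
    (univ.filter (fun x : Fin 6 ↪ α => ∀ i, t • x i = x (tau03 i))).card
      = (movM t : Finset α).card * (((movM t : Finset α).card - 2) * ((movM t : Finset α).card - 4)) := by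
  have hR : (movM t : Finset α).card * (((movM t : Finset α).card - 2) * ((movM t : Finset α).card - 4))
      = ((movM t : Finset α).sigma (fun r => ((movM t : Finset α) \ {r, t • r}).sigma
          (fun r' => (movM t : Finset α) \ {r, t • r, r', t • r'}))).card := by
    rw [Finset.card_sigma]
    rw [Finset.sum_congr rfl (g := fun _ => ((movM t : Finset α).card - 2) * ((movM t : Finset α).card - 4))]
    · simp
    · intro r hr
      rw [Finset.card_sigma, Finset.sum_congr rfl (fun r' hr' => card_quad_sdiff ht hr hr')]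
      simp [card_pair_sdiff ht hr]
  rw [hR]
  refine Finset.card_bij' (fun x _ => ⟨x 0, ⟨x 2, x 4⟩⟩)
    (fun y hy => ⟨![y.1, t • y.1, y.2.1, t • y.2.1, y.2.2, t • y.2.2], ?_⟩) ?_ ?_ ?_ ?_
  · simp only [mem_sigma, mem_sdiff, mem_insert, mem_singleton, not_or] at hy
    obtain ⟨h1, ⟨h2, h3, h4⟩, h7, h8, h9, h10, h11⟩ := hy
    have h1' := mem_movM.mp h1
    have h2' := mem_movM.mp h2
    have h7' := mem_movM.mp h7
    have h5 : t • y.2.1 ≠ y.1 := fun h => h4 (by rw [← h, smul_smul_of_sq ht])
    have h6 : t • y.2.1 ≠ t • y.1 := fun h => h3 (smul_left_cancel t h)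
    have h12 : t • y.2.2 ≠ y.1 := fun h => h9 (by rw [← h, smul_smul_of_sq ht])
    have h13 : t • y.2.2 ≠ t • y.1 := fun h => h8 (smul_left_cancel t h)
    have h14 : t • y.2.2 ≠ y.2.1 := fun h => h11 (by rw [← h, smul_smul_of_sq ht])
    have h15 : t • y.2.2 ≠ t • y.2.1 := fun h => h10 (smul_left_cancel t h)
    intro i j hij
    fin_cases i <;> fin_cases j <;> simp_all [eq_comm]
  · intro x hx
    simp only [mem_filter, mem_univ, true_and] at hx
    have h0 : t • x 0 = x 1 := hx 0
    have h2 : t • x 2 = x 3 := hx 2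
    have h4 : t • x 4 = x 5 := hx 4
    have hne : ∀ i j : Fin 6, i ≠ j → x i ≠ x j := fun i j hij h => hij (x.injective h)
    simp only [mem_sigma, mem_sdiff, mem_insert, mem_singleton, not_or, mem_movM, h0, h2, h4]
    exact ⟨hne _ _ (by decide), ⟨hne _ _ (by decide), hne _ _ (by decide), hne _ _ (by decide)⟩,
      hne _ _ (by decide), hne _ _ (by decide), hne _ _ (by decide), hne _ _ (by decide),
      hne _ _ (by decide)⟩
  · intro y hy
    simp only [mem_filter, mem_univ, true_and]
    intro i
    fin_cases i <;> simp [tau03, smul_smul_of_sq ht]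
  · intro x hx
    simp only [mem_filter, mem_univ, true_and] at hx
    have h0 : t • x 0 = x 1 := hx 0
    have h2 : t • x 2 = x 3 := hx 2
    have h4 : t • x 4 = x 5 := hx 4
    ext i
    fin_cases i <;> simp [h0, h2, h4]
  · rintro ⟨r1, r2, r3⟩ _
    simp

end patterns2

section counting
variable [Fintype α] [Fintype G]

theorem sum_a1 {a : ℕ} (h : IsSharp G α (a + 2)) :
    ∑ t ∈ invs G, (fixF t : Finset α).card.descFactorial a * (movM t : Finset α).card
      = (Fintype.card α).descFactorial (a + 2) := by
  have := sum_fibers h (tauA1 a) (fun i => Equiv.swap_apply_self _ _ _)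
    ⟨lblA a, by rw [tauA1_a]; simp [lblA, lblB, Fin.ext_iff]⟩
  rw [Fintype.card_embedding_eq] at this
  simp only [Fintype.card_fin] at this
  rw [← this]
  apply Finset.sum_congr rfl
  intro t ht
  simp only [invs, mem_filter, mem_univ, true_and] at ht
  exact (card_fiber_a1 t ht.1 a).symm

theorem sum_02 (h : IsSharp G α 4) :
    ∑ t ∈ invs G, (movM t : Finset α).card * ((movM t : Finset α).card - 2)
      = (Fintype.card α).descFactorial 4 := by
  have := sum_fibers h tau02 (by decide) ⟨0, by decide⟩
  rw [Fintype.card_embedding_eq] at this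
  simp only [Fintype.card_fin] at this
  rw [← this]
  apply Finset.sum_congr rfl
  intro t ht
  simp only [invs, mem_filter, mem_univ, true_and] at ht
  exact (card_fiber_02 t ht.1).symm

theorem sum_03 (h : IsSharp G α 6) :
    ∑ t ∈ invs G, (movM t : Finset α).card * (((movM t : Finset α).card - 2) * ((movM t : Finset α).card - 4))
      = (Fintype.card α).descFactorial 6 := by
  have := sum_fibers h tau03 (by decide) ⟨0, by decide⟩
  rw [Fintype.card_embedding_eq] at this
  simp only [Fintype.card_fin] at this
  rw [← this]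
  apply Finset.sum_congr rfl
  intro t ht
  simp only [invs, mem_filter, mem_univ, true_and] at ht
  exact (card_fiber_03 t ht.1).symm

/-- A nontrivial element fixes fewer than `k` points. -/
theorem fix_lt (h : IsSharp G α k) {t : G} (ht : t ≠ 1) : (fixF t : Finset α).card < k := by
  by_contra hk
  push Not at hk
  obtain ⟨x⟩ : Nonempty (Fin k ↪ {a // a ∈ (fixF t : Finset α)}) :=
    Function.Embedding.nonempty_of_card_le (by simpa using hk)
  apply ht
  apply h.free' (x.trans (Function.Embedding.subtype _))
  intro i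
  exact mem_fixF.mp (x i).2

theorem even_movM {t : G} (ht : t * t = 1) : Even (movM t : Finset α).card := by
  have : ∑ a ∈ (movM t : Finset α), (1 : ZMod 2) = 0 := by
    apply Finset.sum_involution (fun a _ => t • a)
    · intro a _
      decide
    · intro a ha _
      exact mem_movM.mp ha
    · intro a _
      exact smul_smul_of_sq ht a
    · intro a ha
      exact smul_mem_movM ht ha
  simp only [Finset.sum_const, nsmul_eq_mul, mul_one] at this
  exact (ZMod.natCast_eq_zero_iff_even).mp this

/-- The number of involutions with `j` fixed points. -/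
noncomputable def numInv (α : Type*) [Fintype α] [MulAction G α] (j : ℕ) : ℕ :=
  ((invs G).filter (fun t : G => (fixF t : Finset α).card = j)).card

theorem sum_by_fix (K : ℕ) (hK : ∀ t ∈ invs G, (fixF t : Finset α).card < K) (g : ℕ → ℕ) :
    ∑ t ∈ invs G, g (fixF t : Finset α).card = ∑ j ∈ range K, numInv (G := G) α j * g j := by
  rw [← Finset.sum_fiberwise_of_maps_to (s := invs G) (t := range K)
    (g := fun t : G => (fixF t : Finset α).card) (fun t ht => mem_range.mpr (hK t ht))]
  apply Finset.sum_congr rfl
  intro j _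
  rw [numInv, ← smul_eq_mul, ← Finset.sum_const]
  apply Finset.sum_congr rfl
  intro t ht
  rw [(mem_filter.mp ht).2]

theorem numInv_eq_zero_of_parity {j : ℕ} (hj : (Fintype.card α + j) % 2 = 1) :
    numInv (G := G) α j = 0 := by
  rw [numInv, Finset.card_eq_zero, Finset.filter_eq_empty_iff]
  intro t ht hjt
  simp only [invs, mem_filter, mem_univ, true_and] at ht
  have h1 := even_movM (α := α) ht.1
  have h2 := card_fix_add_mov (α := α) t
  rw [hjt] at h2
  obtain ⟨c, hc⟩ := h1
  omega

theorem fix_conj (g t : G) :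
    (fixF (g * t * g⁻¹) : Finset α).card = (fixF t : Finset α).card := by
  symm
  apply Finset.card_bij (fun a _ => g • a)
  · intro a ha
    rw [mem_fixF] at ha ⊢
    simp only [mul_smul, inv_smul_smul, ha]
  · intro a _ b _ hab
    exact smul_left_cancel g hab
  · intro b hb
    rw [mem_fixF] at hb
    refine ⟨g⁻¹ • b, ?_, by simp⟩
    rw [mem_fixF]
    have : g⁻¹ • ((g * t * g⁻¹) • b) = g⁻¹ • b := by rw [hb]
    simpa [mul_smul] using this

/-- The number of involutions with exactly one fixed point is divisible by the degree. -/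
theorem card_dvd_numInv_one (htr : ∀ p q : α, ∃ g : G, g • p = q) :
    Fintype.card α ∣ numInv (G := G) α 1 := by
  set A := (invs G).filter (fun t : G => (fixF t : Finset α).card = 1) with hA
  have hc : ∀ p q : α, (A.filter (fun t => t • p = p)).card = (A.filter (fun t => t • q = q)).card := by
    intro p q
    obtain ⟨g, hg⟩ := htr p q
    apply Finset.card_bij (fun t _ => g * t * g⁻¹)
    · intro t ht
      simp only [hA, mem_filter, invs, mem_univ, true_and] at ht ⊢
      refine ⟨⟨⟨?_, ?_⟩, ?_⟩, ?_⟩
      · calc g * t * g⁻¹ * (g * t * g⁻¹) = g * (t * t) * g⁻¹ := by group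
          _ = 1 := by rw [ht.1.1.1]; group
      · intro h
        apply ht.1.1.2
        have : t = g⁻¹ * (g * t * g⁻¹) * g := by group
        rw [this, h]; group
      · rw [fix_conj]; exact ht.1.2
      · rw [← hg]
        simp only [mul_smul, inv_smul_smul, ht.2]
    · intro t _ t' _ h
      exact mul_left_cancel (mul_right_cancel h)
    · intro t ht
      simp only [hA, mem_filter, invs, mem_univ, true_and] at ht
      refine ⟨g⁻¹ * t * g, ?_, by group⟩
      simp only [hA, mem_filter, invs, mem_univ, true_and]
      refine ⟨⟨⟨?_, ?_⟩, ?_⟩, ?_⟩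
      · calc g⁻¹ * t * g * (g⁻¹ * t * g) = g⁻¹ * (t * t) * g := by group
          _ = 1 := by rw [ht.1.1.1]; group
      · intro h
        apply ht.1.1.2
        have : t = g * (g⁻¹ * t * g) * g⁻¹ := by group
        rw [this, h]; group
      · have := fix_conj (α := α) g⁻¹ t
        rw [inv_inv] at this
        rw [this]; exact ht.1.2
      · have h2 := ht.2
        rw [← hg] at h2
        have : g⁻¹ • (t • g • p) = g⁻¹ • (g • p) := by rw [h2]
        simpa [mul_smul] using this
  have hdc : ∑ t ∈ A, (fixF t : Finset α).card = ∑ p : α, (A.filter (fun t => t • p = p)).card := by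
    simp only [fixF]
    simp only [Finset.card_filter]
    rw [Finset.sum_comm]
  have h1 : ∑ t ∈ A, (fixF t : Finset α).card = A.card := by
    rw [Finset.card_eq_sum_ones]
    apply Finset.sum_congr rfl
    intro t ht
    exact (mem_filter.mp ht).2
  rw [numInv, ← hA, ← h1, hdc]
  by_cases hne : Nonempty α
  · obtain ⟨p0⟩ := hne
    rw [Finset.sum_congr rfl (fun p _ => hc p p0)]
    simp
  · have : IsEmpty α := not_nonempty_iff.mp hne
    simp

end counting

section degrees

theorem descFactorial_four (u : ℕ) : (u + 4).descFactorial 4 = (u + 4) * (u + 3) * (u + 2) * (u + 1) := by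
  simp only [Nat.descFactorial]
  have h1 : u + 4 - 3 = u + 1 := by omega
  have h2 : u + 4 - 2 = u + 2 := by omega
  have h3 : u + 4 - 1 = u + 3 := by omega
  have h4 : u + 4 - 0 = u + 4 := by omega
  rw [h1, h2, h3, h4]
  ring

theorem arith4 (u N0 N1 N2 N3 : ℕ) (hP0 : (u + 4 + 0) % 2 = 1 → N0 = 0)
    (hP1 : (u + 4 + 1) % 2 = 1 → N1 = 0) (hP2 : (u + 4 + 2) % 2 = 1 → N2 = 0)
    (hP3 : (u + 4 + 3) % 2 = 1 → N3 = 0) (hdvd : u + 4 ∣ N1)
    (E1 : N2 * (2 * (u + 2)) + N3 * (6 * (u + 1)) = (u + 4) * (u + 3) * (u + 2) * (u + 1))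
    (E2 : N0 * ((u + 4) * (u + 2)) + N1 * ((u + 3) * (u + 3 - 2)) + N2 * ((u + 2) * u)
      + N3 * ((u + 1) * (u + 1 - 2)) = (u + 4) * (u + 3) * (u + 2) * (u + 1)) :
    u + 4 = 4 ∨ u + 4 = 5 ∨ u + 4 = 6 ∨ u + 4 = 11 := by
  rcases Nat.even_or_odd u with he | ho
  · -- even degree
    have hN1 : N1 = 0 := hP1 (by obtain ⟨c, rfl⟩ := he; omega)
    have hN3 : N3 = 0 := hP3 (by obtain ⟨c, rfl⟩ := he; omega)
    rw [hN3] at E1
    rw [hN1, hN3] at E2
    have e1 : 2 * N2 = (u + 4) * (u + 3) * (u + 1) := by
      apply Nat.eq_of_mul_eq_mul_right (show 0 < u + 2 by omega)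
      nlinarith
    have e2 : N0 * (u + 4) + N2 * u = 2 * N2 := by
      apply Nat.eq_of_mul_eq_mul_right (show 0 < u + 2 by omega)
      rw [e1]
      nlinarith
    have hpos : 0 < N2 := by
      by_contra h0
      have : N2 = 0 := by omega
      rw [this] at e1
      have : 0 < (u + 4) * (u + 3) * (u + 1) := by positivity
      omega
    have hu' : u ≤ 2 := by
      by_contra hc
      have : 3 * N2 ≤ N2 * u := by nlinarith
      omega
    obtain ⟨c, rfl⟩ := he
    have : c = 0 ∨ c = 1 := by omega
    rcases this with rfl | rfl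
    · left; omega
    · right; right; left; omega
  · -- odd degree
    have hN0 : N0 = 0 := hP0 (by obtain ⟨c, rfl⟩ := ho; omega)
    have hN2 : N2 = 0 := hP2 (by obtain ⟨c, rfl⟩ := ho; omega)
    rw [hN2] at E1
    rw [hN0, hN2] at E2
    obtain ⟨c, rfl⟩ := ho
    have hsub : 2 * c + 1 + 1 - 2 = 2 * c := by omega
    have hsub' : 2 * c + 1 + 3 - 2 = 2 * c + 1 + 1 := by omega
    simp only [hsub, hsub'] at E2
    have e1 : 6 * N3 = (2 * c + 1 + 4) * (2 * c + 1 + 3) * (2 * c + 1 + 2) := by
      apply Nat.eq_of_mul_eq_mul_right (show 0 < 2 * c + 1 + 1 by omega)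
      nlinarith
    have e2 : N1 * (2 * c + 1 + 3) + N3 * (2 * c) = 6 * N3 := by
      apply Nat.eq_of_mul_eq_mul_right (show 0 < 2 * c + 1 + 1 by omega)
      rw [e1]
      nlinarith
    have hpos : 0 < N3 := by
      by_contra h0
      have : N3 = 0 := by omega
      rw [this] at e1
      have : 0 < (2 * c + 1 + 4) * (2 * c + 1 + 3) * (2 * c + 1 + 2) := by positivity
      omega
    have hc : c ≤ 3 := by
      by_contra hc
      have : 8 * N3 ≤ N3 * (2 * c) := by nlinarith
      omega
    interval_cases c
    · right; left; omega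
    · -- degree 7
      exfalso
      omega
    · -- degree 9
      exfalso
      obtain ⟨d, hd⟩ := hdvd
      omega
    · right; right; right; omega

/-- Jordan: the degree of a sharply 4-transitive group is 4, 5, 6 or 11. -/
theorem degree4 [Finite α] (h : IsSharp G α 4) (hn : 4 ≤ Nat.card α) :
    Nat.card α = 4 ∨ Nat.card α = 5 ∨ Nat.card α = 6 ∨ Nat.card α = 11 := by
  letI := Fintype.ofFinite α
  rw [Nat.card_eq_fintype_card] at hn ⊢
  obtain ⟨x0⟩ : Nonempty (Fin 4 ↪ α) :=
    Function.Embedding.nonempty_of_card_le (by simpa using hn)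
  haveI : Finite G := h.finite ⟨x0⟩
  letI := Fintype.ofFinite G
  obtain ⟨u, hu⟩ : ∃ u, Fintype.card α = u + 4 := ⟨Fintype.card α - 4, by omega⟩
  have hK : ∀ t ∈ invs G, (fixF t : Finset α).card < 4 := by
    intro t ht
    exact fix_lt h (mem_filter.mp ht).2.2
  have hm : ∀ t : G, (movM t : Finset α).card = (u + 4) - (fixF t : Finset α).card := by
    intro t
    have := card_fix_add_mov (α := α) t
    omega
  have E1 := sum_a1 (a := 2) (G := G) (α := α) h
  have E2 := sum_02 (G := G) (α := α) h
  simp only [hm] at E1 E2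
  rw [sum_by_fix 4 hK (fun j => j.descFactorial 2 * (u + 4 - j))] at E1
  rw [sum_by_fix 4 hK (fun j => (u + 4 - j) * (u + 4 - j - 2))] at E2
  simp only [Finset.sum_range_succ, Finset.sum_range_zero, hu, zero_add] at E1 E2
  rw [show (2 + 2) = 4 from rfl] at E1
  rw [descFactorial_four] at E1 E2
  simp only [Nat.descFactorial] at E1
  have hP0 := numInv_eq_zero_of_parity (G := G) (α := α) (j := 0)
  have hP1 := numInv_eq_zero_of_parity (G := G) (α := α) (j := 1)
  have hP2 := numInv_eq_zero_of_parity (G := G) (α := α) (j := 2)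
  have hP3 := numInv_eq_zero_of_parity (G := G) (α := α) (j := 3)
  rw [hu] at hP0 hP1 hP2 hP3
  have hdvd := card_dvd_numInv_one (G := G) (α := α) (fun p q => by
    have x : Fin 4 ↪ α := x0
    -- transitivity from 4-transitivity
    obtain ⟨y, hy⟩ : ∃ y : Fin 4 ↪ α, y 0 = p := by
      obtain ⟨e⟩ : Nonempty (Equiv.Perm α) := ⟨Equiv.refl α⟩
      refine ⟨x0.trans (Equiv.swap (x0 0) p).toEmbedding, ?_⟩
      simp
    obtain ⟨z, hz⟩ : ∃ z : Fin 4 ↪ α, z 0 = q := by
      refine ⟨x0.trans (Equiv.swap (x0 0) q).toEmbedding, ?_⟩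
      simp
    obtain ⟨g, hg⟩ := h.trans y z
    refine ⟨g, ?_⟩
    have := congrArg (fun w : Fin 4 ↪ α => w 0) hg
    simpa [hy, hz] using this)
  rw [hu] at hdvd
  have hu3 : u + 4 - 3 = u + 1 := by omega
  have hu2 : u + 4 - 2 = u + 2 := by omega
  have hu1 : u + 4 - 1 = u + 3 := by omega
  simp only [hu3, hu2, hu1, Nat.sub_zero] at E1 E2
  norm_num at E1 E2
  rw [hu]
  exact arith4 u _ _ _ _ hP0 hP1 hP2 hP3 hdvd E1 E2

/-- There is no sharply 6-transitive group of degree 13. -/
theorem not_sharp6_13 [Finite α] (h : IsSharp G α 6) (hn : Nat.card α = 13) : False := by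
  letI := Fintype.ofFinite α
  rw [Nat.card_eq_fintype_card] at hn
  obtain ⟨x0⟩ : Nonempty (Fin 6 ↪ α) :=
    Function.Embedding.nonempty_of_card_le (by simp [hn])
  haveI : Finite G := h.finite ⟨x0⟩
  letI := Fintype.ofFinite G
  have hK : ∀ t ∈ invs G, (fixF t : Finset α).card < 6 := by
    intro t ht
    exact fix_lt h (mem_filter.mp ht).2.2
  have hm : ∀ t : G, (movM t : Finset α).card = 13 - (fixF t : Finset α).card := by
    intro t
    have := card_fix_add_mov (α := α) t
    omega
  have E1 := sum_a1 (a := 4) (G := G) (α := α) h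
  have E2 := sum_03 (G := G) (α := α) h
  simp only [hm] at E1 E2
  rw [sum_by_fix 6 hK (fun j => j.descFactorial 4 * (13 - j))] at E1
  rw [sum_by_fix 6 hK (fun j => (13 - j) * ((13 - j - 2) * (13 - j - 4)))] at E2
  simp only [Finset.sum_range_succ, Finset.sum_range_zero, hn, zero_add] at E1 E2
  have hP0 := numInv_eq_zero_of_parity (G := G) (α := α) (j := 0) (by omega)
  have hP2 := numInv_eq_zero_of_parity (G := G) (α := α) (j := 2) (by omega)
  have hP4 := numInv_eq_zero_of_parity (G := G) (α := α) (j := 4) (by omega)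
  rw [hP0, hP2, hP4] at E1 E2
  norm_num [Nat.descFactorial] at E1 E2
  omega

end degrees

section stabilizers

open SubMulAction

theorem IsSharp.stabilizer (h : IsSharp G α (k + 1)) (a : α) :
    IsSharp (stabilizer G a) (ofStabilizer G a) k := by
  constructor
  · intro x y
    obtain ⟨g, hg⟩ := h.trans (ofStabilizer.snoc x) (ofStabilizer.snoc y)
    have hg' : ∀ i, g • (ofStabilizer.snoc x i) = ofStabilizer.snoc y i := by
      intro i
      have := congrArg (fun w : Fin (k + 1) ↪ α => w i) hg
      simpa using this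
    have hga : g ∈ MulAction.stabilizer G a := by
      have := hg' (Fin.last k)
      rwa [ofStabilizer.snoc_last, ofStabilizer.snoc_last] at this
    refine ⟨⟨g, hga⟩, ?_⟩
    ext i
    have := hg' i.castSucc
    rw [ofStabilizer.snoc_castSucc, ofStabilizer.snoc_castSucc] at this
    simpa using this
  · intro x g hg
    have hg' : ∀ i, g • x i = x i := by
      intro i
      have := congrArg (fun w : Fin k ↪ ofStabilizer G a => w i) hg
      simpa using this
    have : (g : G) = 1 := by
      apply h.free' (ofStabilizer.snoc x)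
      intro i
      induction i using Fin.lastCases with
      | last =>
        rw [ofStabilizer.snoc_last]
        exact g.2
      | cast i =>
        rw [ofStabilizer.snoc_castSucc]
        exact congrArg Subtype.val (hg' i)
    exact Subtype.ext this

theorem card_ofStabilizer [Finite α] (a : α) :
    Nat.card (ofStabilizer G a) = Nat.card α - 1 :=
  nat_card_ofStabilizer_eq G a

/-- Jordan: the degree of a sharply 5-transitive group is 5, 6, 7 or 12. -/
theorem degree5 [Finite α] (h : IsSharp G α 5) (hn : 5 ≤ Nat.card α) :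
    Nat.card α = 5 ∨ Nat.card α = 6 ∨ Nat.card α = 7 ∨ Nat.card α = 12 := by
  have hne : Nonempty α := (Nat.card_pos_iff.mp (by omega)).1
  obtain ⟨a⟩ := hne
  have h' := h.stabilizer a
  have hc := card_ofStabilizer (G := G) a
  have := degree4 h' (by omega)
  omega

/-- Degree of a sharply 6-transitive group. -/
theorem degree6 [Finite α] (h : IsSharp G α 6) (hn : 6 ≤ Nat.card α) :
    Nat.card α = 6 ∨ Nat.card α = 7 ∨ Nat.card α = 8 := by
  have hne : Nonempty α := (Nat.card_pos_iff.mp (by omega)).1
  obtain ⟨a⟩ := hne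
  have h' := h.stabilizer a
  have hc := card_ofStabilizer (G := G) a
  have := degree5 h' (by omega)
  have h13 : Nat.card α ≠ 13 := fun h13 => not_sharp6_13 h h13
  omega

/-- Degree of a sharply `k`-transitive group for `k ≥ 6`. -/
theorem degree_large {G : Type*} {α : Type*} [Group G] [MulAction G α] [Finite α] (k : ℕ)
    (hk : 6 ≤ k) (h : IsSharp G α k) (hn : k ≤ Nat.card α) :
    Nat.card α = k ∨ Nat.card α = k + 1 ∨ Nat.card α = k + 2 := by
  induction k, hk using Nat.le_induction generalizing G α with
  | base => exact degree6 h hn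
  | succ k hk ih =>
    have hne : Nonempty α := (Nat.card_pos_iff.mp (by omega)).1
    obtain ⟨a⟩ := hne
    have h' := h.stabilizer a
    have hc := card_ofStabilizer (G := G) a
    have := ih h' (by omega)
    omega

end stabilizers

end Cfsg.Agent.Lib.Sharp.Basic
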