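import Cfsg.Agent.Lib.Sharp.Basic

set_option autoImplicit false
set_option linter.unusedSectionVars false
set_option linter.unusedSimpArgs false
set_option linter.style.haveILetI false

/-!
# Simplicity of sharply 4-transitive groups of degree 11 and sharply 5-transitive groups of degree 12.
-/

namespace Cfsg.Agent.Lib.Sharp.Simple

open MulAction Function Finset SubMulAction
open Cfsg.Agent.Lib.Sharp.Basic
open scoped Classical

variable {G α : Type*} [Group G] [MulAction G α] {k : ℕ}

theorem pretrans_of_sharp (h : IsSharp G α (k + 1)) (x0 : Fin (k + 1) ↪ α) (p q : α) :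
    ∃ g : G, g • p = q := by
  classical
  obtain ⟨g, hg⟩ := h.trans (x0.trans (Equiv.swap (x0 0) p).toEmbedding)
    (x0.trans (Equiv.swap (x0 0) q).toEmbedding)
  refine ⟨g, ?_⟩
  have := congrArg (fun w : Fin (k + 1) ↪ α => w 0) hg
  simpa using this

theorem two_trans_of_sharp [Finite α] (h : IsSharp G α (k + 2)) (hn : k + 2 ≤ Nat.card α) :
    IsMultiplyPretransitive G α 2 := by
  haveI : IsMultiplyPretransitive G α (k + 2) := ⟨h.trans⟩
  exact isMultiplyPretransitive_of_le (by omega) hn

theorem exists_embedding [Finite α] (hn : k ≤ Nat.card α) : Nonempty (Fin k ↪ α) := by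
  letI := Fintype.ofFinite α
  exact Function.Embedding.nonempty_of_card_le (by simpa [Nat.card_eq_fintype_card] using hn)

theorem eq_one_of_forall_fix [Finite α] (h : IsSharp G α k) (hn : k ≤ Nat.card α) {g : G}
    (hg : ∀ a : α, g • a = a) : g = 1 := by
  obtain ⟨x0⟩ := exists_embedding (k := k) (α := α) hn
  exact h.free' x0 g (fun i => hg _)

theorem normal_trans [Finite α] (h : IsSharp G α (k + 2)) (hn : k + 2 ≤ Nat.card α)
    (N : Subgroup G) [N.Normal] (hN : N ≠ ⊥) : IsPretransitive N α := by
  have h2 := two_trans_of_sharp h hn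
  have : IsPreprimitive G α := isPreprimitive_of_is_two_pretransitive h2
  apply IsQuasiPreprimitive.isPretransitive_of_normal
  intro hfix
  apply hN
  rw [Subgroup.eq_bot_iff_forall]
  intro n hn'
  apply eq_one_of_forall_fix h hn
  intro a
  have : a ∈ fixedPoints N α := by rw [hfix]; trivial
  exact this ⟨n, hn'⟩

theorem card_stabilizer_subgroupOf (N : Subgroup G) (a : α) :
    Nat.card (stabilizer N a) = Nat.card (N.subgroupOf (stabilizer G a)) := by
  apply Nat.card_congr
  refine ⟨fun x => ⟨⟨x.1.1, x.2⟩, x.1.2⟩, fun y => ⟨⟨y.1.1, y.2⟩, y.1.2⟩, ?_, ?_⟩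
  · intro x; rfl
  · intro y; rfl

theorem step [Finite α] (h : IsSharp G α (k + 2)) (hn : k + 2 ≤ Nat.card α)
    (N : Subgroup G) [N.Normal] (a : α) :
    N = ⊥ ∨ Nat.card N = Nat.card α * Nat.card (N.subgroupOf (stabilizer G a)) := by
  by_cases hN : N = ⊥
  · exact Or.inl hN
  · right
    haveI := normal_trans h hn N hN
    rw [← card_stabilizer_subgroupOf, ← index_stabilizer_of_transitive N a, Subgroup.index_mul_card]

/-! ### Fixed points of involutions in degree 11 -/

theorem fix_eq_three [Fintype α] [Fintype G] (h : IsSharp G α 4) (hn : Fintype.card α = 11)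
    {t : G} (ht : t ∈ invs G) : (fixF t : Finset α).card = 3 := by
  have hK : ∀ t ∈ invs G, (fixF t : Finset α).card < 4 := by
    intro t ht
    exact fix_lt h (mem_filter.mp ht).2.2
  have hm : ∀ t : G, (movM t : Finset α).card = 11 - (fixF t : Finset α).card := by
    intro t
    have := card_fix_add_mov (α := α) t
    omega
  have E1 := sum_a1 (a := 2) (G := G) (α := α) h
  have E2 := sum_02 (G := G) (α := α) h
  simp only [hm] at E1 E2
  rw [sum_by_fix 4 hK (fun j => j.descFactorial 2 * (11 - j))] at E1
  rw [sum_by_fix 4 hK (fun j => (11 - j) * (11 - j - 2))] at E2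
  simp only [Finset.sum_range_succ, Finset.sum_range_zero, hn, zero_add] at E1 E2
  have hP0 := numInv_eq_zero_of_parity (G := G) (α := α) (j := 0) (by omega)
  have hP2 := numInv_eq_zero_of_parity (G := G) (α := α) (j := 2) (by omega)
  rw [hP0, hP2] at E1 E2
  norm_num [Nat.descFactorial] at E1 E2
  have hN1 : numInv (G := G) α 1 = 0 := by omega
  have hlt := hK t ht
  have hne : ∀ j, (fixF t : Finset α).card = j → numInv (G := G) α j ≠ 0 := by
    intro j hj h0
    rw [numInv, Finset.card_eq_zero, Finset.filter_eq_empty_iff] at h0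
    exact h0 ht hj
  have h0 := hne 0
  have h1 := hne 1
  have h2 := hne 2
  rw [hP0] at h0
  rw [hP2] at h2
  rw [hN1] at h1
  simp only [ne_eq, not_true_eq_false, imp_false] at h0 h1 h2
  omega

/-- An involution normalizing a subgroup of order 11 of a sharply 4-transitive group of degree 11
does not exist. -/
theorem no_involution_normalizer [Finite G] [Fintype α] (h : IsSharp G α 4)
    (hn : Fintype.card α = 11) (Q : Subgroup G) (hQ : Nat.card Q = 11) (t : G)
    (htn : t ∈ Subgroup.normalizer (Q : Set G)) (ht2 : t * t = 1) (ht1 : t ≠ 1) : False := by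
  letI := Fintype.ofFinite G
  have hf : (fixF t : Finset α).card = 3 := fix_eq_three h hn (by
    simp [invs, ht2, ht1])
  have hcardα : Nat.card α = 11 := by rw [Nat.card_eq_fintype_card, hn]
  obtain ⟨a, b, hab, hfa, hfb⟩ : ∃ a b : α, a ≠ b ∧ a ∈ (fixF t : Finset α) ∧ b ∈ (fixF t : Finset α) := by
    have : 1 < (fixF t : Finset α).card := by omega
    obtain ⟨a, ha, b, hb, hab⟩ := Finset.one_lt_card.mp this
    exact ⟨a, b, hab, ha, hb⟩
  rw [mem_fixF] at hfa hfb
  -- `Q` acts regularly
  haveI : Fact (Nat.Prime 11) := ⟨by norm_num⟩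
  have hQprime : ∀ y : Q, y ≠ 1 → Subgroup.zpowers y = ⊤ := by
    intro y hy
    haveI : Fact (Nat.Prime (Nat.card Q)) := by rw [hQ]; infer_instance
    have hbot : Subgroup.zpowers y ≠ ⊥ := by simpa using hy
    exact (Subgroup.eq_bot_or_eq_top_of_prime_card (Subgroup.zpowers y)).resolve_left hbot
  -- every nonidentity element of `Q` moves every point
  have hne1 : ∃ y : Q, y ≠ 1 := by
    have : 1 < Nat.card Q := by omega
    haveI : Nontrivial Q := Finite.one_lt_card_iff_nontrivial.mp this
    exact exists_ne 1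
  -- a point moved by `Q`
  obtain ⟨y0, hy0⟩ := hne1
  have hy0' : (y0 : G) ≠ 1 := by simpa using hy0
  obtain ⟨p, hp⟩ : ∃ p : α, (y0 : G) • p ≠ p := by
    by_contra hcon
    push Not at hcon
    exact hy0' (eq_one_of_forall_fix h (by omega) hcon)
  have horb : (orbit Q p).ncard = 11 := by
    have hdvd : (orbit Q p).ncard ∣ 11 := by
      rw [← hQ, ← index_stabilizer]
      exact Subgroup.index_dvd_card _
    have hp11 : Nat.Prime 11 := by norm_num
    rcases (Nat.dvd_prime hp11).mp hdvd with h1 | h11
    · exfalso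
      have hmem : p ∈ orbit Q p := mem_orbit_self p
      have hmem2 : y0 • p ∈ orbit Q p := mem_orbit p y0
      rw [Set.ncard_eq_one] at h1
      obtain ⟨c, hc⟩ := h1
      rw [hc] at hmem hmem2
      have e1 : p = c := hmem
      have e2 : y0 • p = c := hmem2
      exact hp (by rw [Subgroup.smul_def] at e2; rw [e2, e1])
    · exact h11
  have horbU : orbit Q p = Set.univ := by
    apply Set.eq_of_subset_of_ncard_le (Set.subset_univ _)
    rw [horb, Set.ncard_univ, hcardα]
  have htr : ∀ u v : α, ∃ y : Q, y • u = v := by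
    intro u v
    have hu : u ∈ orbit Q p := by rw [horbU]; trivial
    have hv : v ∈ orbit Q p := by rw [horbU]; trivial
    obtain ⟨y1, hy1⟩ := hu
    obtain ⟨y2, hy2⟩ := hv
    refine ⟨y2 * y1⁻¹, ?_⟩
    simp only at hy1 hy2
    rw [mul_smul, ← hy1, inv_smul_smul, hy2]
  have hstab : ∀ (u : α) (y : Q), y • u = u → y = 1 := by
    intro u y hy
    haveI : IsPretransitive Q α := ⟨htr⟩
    have hidx : (stabilizer Q u).index = 11 := by
      rw [index_stabilizer_of_transitive, hcardα]
    have hcard : Nat.card (stabilizer Q u) = 1 := by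
      have := Subgroup.index_mul_card (stabilizer Q u)
      rw [hidx, hQ] at this
      omega
    have hmem : y ∈ stabilizer Q u := hy
    rw [Subgroup.card_eq_one] at hcard
    rw [hcard] at hmem
    simpa using hmem
  -- main computation
  obtain ⟨y, hy⟩ := htr a b
  have hy1 : y ≠ 1 := by
    rintro rfl
    rw [one_smul] at hy
    exact hab hy
  have hyQ : (y : G) ∈ Q := y.2
  have hconj : t * (y : G) * t⁻¹ ∈ Q := (Subgroup.mem_normalizer_iff.mp htn (y : G)).mp hyQ
  let y' : Q := ⟨t * (y : G) * t⁻¹, hconj⟩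
  have hy'a : y' • a = y • a := by
    rw [hy, Subgroup.smul_def]
    have hta : t⁻¹ • a = a := by
      rw [inv_smul_eq_iff, hfa]
    show (t * (y : G) * t⁻¹) • a = b
    rw [mul_smul, mul_smul, hta]
    have : (y : G) • a = b := hy
    rw [this, hfb]
  have hyy : y⁻¹ * y' = 1 := by
    apply hstab a
    rw [mul_smul, hy'a, inv_smul_smul]
  have hcomm : t * (y : G) * t⁻¹ = y := by
    have : y' = y := (inv_mul_eq_one.mp hyy).symm
    exact congrArg Subtype.val this
  -- `t` centralizes `Q`
  have hall : ∀ z : Q, t * (z : G) * t⁻¹ = z := by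
    intro z
    have hz : z ∈ Subgroup.zpowers y := by rw [hQprime y hy1]; trivial
    obtain ⟨n, rfl⟩ := hz
    simp only [Subgroup.coe_zpow]
    rw [← conj_zpow, hcomm]
  apply ht1
  apply eq_one_of_forall_fix h (by omega)
  intro u
  obtain ⟨z, hz⟩ := htr a u
  rw [← hz, Subgroup.smul_def]
  have : t • ((z : G) • a) = (t * (z : G) * t⁻¹) • (t • a) := by
    simp [mul_smul]
  rw [this, hall, hfa]

/-! ### Order of normal subgroups along the stabilizer chain -/

theorem card_normal_sharp1 [Finite α] (h : IsSharp G α 1) (hn : Nat.card α = 8) (N : Subgroup G) :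
    Nat.card N ∣ 8 := by
  letI := Fintype.ofFinite α
  have hc := h.card_eq (by rw [← Nat.card_eq_fintype_card, hn]; norm_num)
  rw [← Nat.card_eq_fintype_card, hn] at hc
  simp only [Nat.descFactorial_one] at hc
  rw [← hc]
  exact Subgroup.card_subgroup_dvd_card N

theorem ofStabilizer_card_pos [Finite α] (a : α) {m : ℕ} (hn : Nat.card α = m + 2) :
    Nonempty (ofStabilizer G a) := by
  have := card_ofStabilizer (G := G) a
  exact (Nat.card_pos_iff.mp (by omega)).1

theorem card_normal_sharp2 [Finite α] (h : IsSharp G α 2) (hn : Nat.card α = 9) (N : Subgroup G)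
    [N.Normal] : N = ⊥ ∨ ∃ d, d ∣ 8 ∧ Nat.card N = 9 * d := by
  obtain ⟨a⟩ : Nonempty α := (Nat.card_pos_iff.mp (by omega)).1
  rcases step (k := 0) h (by omega) N a with h0 | h1
  · exact Or.inl h0
  · right
    rw [hn] at h1
    refine ⟨_, ?_, h1⟩
    apply card_normal_sharp1 (h.stabilizer a)
    rw [card_ofStabilizer, hn]

theorem card_normal_sharp3 [Finite α] (h : IsSharp G α 3) (hn : Nat.card α = 10) (N : Subgroup G)
    [N.Normal] : N = ⊥ ∨ Nat.card N = 10 ∨ ∃ d, d ∣ 8 ∧ Nat.card N = 90 * d := by
  obtain ⟨a⟩ : Nonempty α := (Nat.card_pos_iff.mp (by omega)).1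
  rcases step (k := 1) h (by omega) N a with h0 | h1
  · exact Or.inl h0
  · right
    rw [hn] at h1
    rcases card_normal_sharp2 (h.stabilizer a) (by rw [card_ofStabilizer, hn])
        (N.subgroupOf (stabilizer G a)) with h2 | ⟨d, hd, h2⟩
    · left
      rw [h1, h2]
      simp
    · right
      refine ⟨d, hd, ?_⟩
      rw [h1, h2]
      ring

theorem card_normal_sharp4 [Finite α] (h : IsSharp G α 4) (hn : Nat.card α = 11) (N : Subgroup G)
    [N.Normal] :
    N = ⊥ ∨ Nat.card N = 11 ∨ Nat.card N = 110 ∨ ∃ d, d ∣ 8 ∧ Nat.card N = 990 * d := by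
  obtain ⟨a⟩ : Nonempty α := (Nat.card_pos_iff.mp (by omega)).1
  rcases step (k := 2) h (by omega) N a with h0 | h1
  · exact Or.inl h0
  · right
    rw [hn] at h1
    rcases card_normal_sharp3 (h.stabilizer a) (by rw [card_ofStabilizer, hn])
        (N.subgroupOf (stabilizer G a)) with h2 | h2 | ⟨d, hd, h2⟩
    · left
      rw [h1, h2]
      simp
    · right; left
      rw [h1, h2]
    · right; right
      refine ⟨d, hd, ?_⟩
      rw [h1, h2]
      ring

theorem factorization_7920 : (7920 : ℕ).factorization 11 = 1 := by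
  rw [show (7920 : ℕ) = 11 * 720 by norm_num,
    Nat.factorization_mul (by norm_num) (by norm_num)]
  simp only [Finsupp.coe_add, Pi.add_apply]
  rw [Nat.Prime.factorization_self (by norm_num),
    Nat.factorization_eq_zero_of_not_dvd (by norm_num)]

theorem odd_index [Finite α] (h : IsSharp G α 4) (hn : Nat.card α = 11) (N : Subgroup G)
    [N.Normal] (hN : N ≠ ⊥) : Odd N.index := by
  letI := Fintype.ofFinite α
  have hn' : Fintype.card α = 11 := by rw [← Nat.card_eq_fintype_card, hn]
  have hcard : Nat.card G = 7920 := by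
    rw [h.card_eq (by omega), hn']
    rfl
  haveI : Finite G := by
    apply Nat.finite_of_card_ne_zero
    omega
  haveI : Fact (Nat.Prime 11) := ⟨by norm_num⟩
  have h11 : 11 ∣ Nat.card N := by
    rcases card_normal_sharp4 h hn N with h0 | h1 | h1 | ⟨d, _, h1⟩
    · exact absurd h0 hN
    · rw [h1]
    · rw [h1]; norm_num
    · rw [h1]; exact Dvd.dvd.mul_right (by norm_num) d
  obtain ⟨x, hx⟩ := exists_prime_orderOf_dvd_card' 11 h11
  set Q : Subgroup G := Subgroup.zpowers (x : G) with hQdef
  have hQcard : Nat.card Q = 11 := by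
    rw [hQdef, Nat.card_zpowers, Subgroup.orderOf_coe, hx]
  have hQN : Q ≤ N := by
    rw [hQdef, Subgroup.zpowers_le]
    exact x.2
  have hfact : Nat.card Q = 11 ^ (Nat.card G).factorization 11 := by
    rw [hcard, factorization_7920, hQcard]
    norm_num
  let P : Sylow 11 G := Sylow.ofCard Q hfact
  have hP : (P : Subgroup G) = Q := rfl
  have hsup : Subgroup.normalizer ((P : Subgroup G) : Set G) ⊔ N = ⊤ :=
    Sylow.normalizer_sup_eq_top' P (by rw [hP]; exact hQN)
  rw [hP] at hsup
  -- the normalizer has odd order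
  have hodd : Odd (Nat.card (Subgroup.normalizer (Q : Set G))) := by
    rw [← Nat.not_even_iff_odd, even_iff_two_dvd]
    intro h2
    haveI : Fact (Nat.Prime 2) := ⟨by norm_num⟩
    obtain ⟨t, ht⟩ := exists_prime_orderOf_dvd_card' 2 h2
    have ht1 : (t : G) ≠ 1 := by
      intro h1
      have : t = 1 := Subtype.ext h1
      rw [this, orderOf_one] at ht
      omega
    have ht2 : (t : G) * (t : G) = 1 := by
      have := pow_orderOf_eq_one (t : G)
      rw [Subgroup.orderOf_coe, ht, pow_two] at this
      exact this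
    exact no_involution_normalizer h hn' Q hQcard t t.2 ht2 ht1
  -- the quotient is an image of the normalizer
  have hsurj : Function.Surjective
      ((QuotientGroup.mk' N).comp (Subgroup.normalizer (Q : Set G)).subtype) := by
    intro y
    obtain ⟨g, rfl⟩ := QuotientGroup.mk'_surjective N y
    have hg : g ∈ Subgroup.normalizer (Q : Set G) ⊔ N := by rw [hsup]; trivial
    obtain ⟨m, hm, n, hn1, rfl⟩ := Subgroup.mem_sup_of_normal_right.mp hg
    refine ⟨⟨m, hm⟩, ?_⟩
    simp only [MonoidHom.coe_comp, Function.comp_apply, Subgroup.coe_subtype]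
    rw [map_mul]
    have : QuotientGroup.mk' N n = 1 := by
      rw [QuotientGroup.mk'_apply, QuotientGroup.eq_one_iff]
      exact hn1
    rw [this, mul_one]
  have hdvd : N.index ∣ Nat.card (Subgroup.normalizer (Q : Set G)) :=
    Subgroup.card_dvd_of_surjective _ hsurj
  exact Odd.of_dvd_nat hodd hdvd

/-- A sharply 4-transitive group of degree 11 is simple of order 7920. -/
theorem simple_deg11 [Finite α] (h : IsSharp G α 4) (hn : Nat.card α = 11) :
    IsSimpleGroup G ∧ Nat.card G = 7920 := by
  letI := Fintype.ofFinite α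
  have hn' : Fintype.card α = 11 := by rw [← Nat.card_eq_fintype_card, hn]
  have hcard : Nat.card G = 7920 := by
    rw [h.card_eq (by omega), hn']
    rfl
  haveI : Finite G := by
    apply Nat.finite_of_card_ne_zero
    omega
  refine ⟨?_, hcard⟩
  haveI : Nontrivial G := Finite.one_lt_card_iff_nontrivial.mp (by omega)
  refine ⟨fun N hNn => ?_⟩
  by_cases hN : N = ⊥
  · exact Or.inl hN
  · right
    have hodd := odd_index h hn N hN
    have hmul := Subgroup.card_mul_index N
    rw [hcard] at hmul
    rw [← Subgroup.index_eq_one]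
    obtain ⟨i, hi⟩ := hodd
    rw [hi] at hmul ⊢
    rcases card_normal_sharp4 h hn N with h0 | h1 | h1 | ⟨d, hd, h1⟩
    · exact absurd h0 hN
    · rw [h1] at hmul; omega
    · rw [h1] at hmul; omega
    · rw [h1] at hmul
      have hd8 : d ≤ 8 := Nat.le_of_dvd (by norm_num) hd
      interval_cases d <;> omega

/-! ### Two-transitive groups with simple stabilizers -/

/-- A normal subgroup meeting a point stabilizer trivially in a 2-transitive group has all
nonidentity elements of the same order. -/
theorem order_eq_of_regular [Finite α] (h2 : IsMultiplyPretransitive G α 2)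
    (N : Subgroup G) [N.Normal] (a : α) (hN1 : N.subgroupOf (stabilizer G a) = ⊥)
    (n1 n2 : N) (h1 : n1 ≠ 1) (h2' : n2 ≠ 1) : orderOf n1 = orderOf n2 := by
  have hfree : ∀ n : N, (n : G) • a = a → n = 1 := by
    intro n hn
    have hmem : (⟨n, hn⟩ : stabilizer G a) ∈ N.subgroupOf (stabilizer G a) := n.2
    rw [hN1, Subgroup.mem_bot] at hmem
    exact Subtype.ext (congrArg (fun z : stabilizer G a => (z : G)) hmem)
  have hne1 : (n1 : G) • a ≠ a := fun h => h1 (hfree n1 h)
  have hne2 : (n2 : G) • a ≠ a := fun h => h2' (hfree n2 h)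
  rw [is_two_pretransitive_iff] at h2
  obtain ⟨g, hg1, hg2⟩ := h2 (Ne.symm hne1) (Ne.symm hne2)
  have hgn : g * (n1 : G) * g⁻¹ ∈ N := Subgroup.Normal.conj_mem inferInstance _ n1.2 g
  have : (n2 : G)⁻¹ * (g * (n1 : G) * g⁻¹) = 1 := by
    have hga : g⁻¹ • a = a := by rw [inv_smul_eq_iff, hg1]
    have := hfree (n2⁻¹ * ⟨g * (n1 : G) * g⁻¹, hgn⟩) (by
      simp only [Subgroup.coe_mul, Subgroup.coe_inv]
      rw [mul_smul, mul_smul, mul_smul, hga, hg2, inv_smul_smul])
    exact congrArg Subtype.val this
  have hconj : g * (n1 : G) * g⁻¹ = n2 := (inv_mul_eq_one.mp this).symm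
  rw [← Subgroup.orderOf_coe n1, ← Subgroup.orderOf_coe n2, ← hconj, ← MulAut.conj_apply,
    MulEquiv.orderOf_eq]

/-- 2-transitive, faithful, with simple point stabilizer, and degree divisible by two primes:
the group is simple. -/
theorem simple_of_stabilizer_simple [Finite α] [Finite G] [Nontrivial G]
    (h2 : IsMultiplyPretransitive G α 2) (hf : ∀ g : G, (∀ a : α, g • a = a) → g = 1)
    (a : α) (hS : IsSimpleGroup (stabilizer G a)) {p q : ℕ} (hp : p.Prime) (hq : q.Prime)
    (hpq : p ≠ q) (hpd : p ∣ Nat.card α) (hqd : q ∣ Nat.card α) : IsSimpleGroup G := by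
  refine ⟨fun N hNn => ?_⟩
  by_cases hN : N = ⊥
  · exact Or.inl hN
  right
  have : IsPreprimitive G α := isPreprimitive_of_is_two_pretransitive h2
  have htr : IsPretransitive N α := by
    apply IsQuasiPreprimitive.isPretransitive_of_normal
    intro hfix
    apply hN
    rw [Subgroup.eq_bot_iff_forall]
    intro n hn'
    apply hf
    intro b
    have : b ∈ fixedPoints N α := by rw [hfix]; trivial
    exact this ⟨n, hn'⟩
  have hcardN : Nat.card N = Nat.card α * Nat.card (N.subgroupOf (stabilizer G a)) := by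
    rw [← card_stabilizer_subgroupOf, ← index_stabilizer_of_transitive N a, Subgroup.index_mul_card]
  rcases hS.eq_bot_or_eq_top_of_normal (N.subgroupOf (stabilizer G a)) inferInstance with h0 | h1
  · -- regular
    exfalso
    have hcardN' : Nat.card N = Nat.card α := by
      rw [hcardN, h0]
      simp
    haveI : Fact p.Prime := ⟨hp⟩
    haveI : Fact q.Prime := ⟨hq⟩
    obtain ⟨n1, hn1⟩ := exists_prime_orderOf_dvd_card' p (by rw [hcardN']; exact hpd : p ∣ Nat.card N)
    obtain ⟨n2, hn2⟩ := exists_prime_orderOf_dvd_card' q (by rw [hcardN']; exact hqd : q ∣ Nat.card N)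
    have hne1 : n1 ≠ 1 := by
      rintro rfl
      rw [orderOf_one] at hn1
      exact hp.one_lt.ne hn1
    have hne2 : n2 ≠ 1 := by
      rintro rfl
      rw [orderOf_one] at hn2
      exact hq.one_lt.ne hn2
    have := order_eq_of_regular h2 N a h0 n1 n2 hne1 hne2
    rw [hn1, hn2] at this
    exact hpq this
  · -- contains the stabilizer
    rw [eq_top_iff]
    intro g _
    have hle : stabilizer G a ≤ N := by
      rwa [Subgroup.subgroupOf_eq_top] at h1
    obtain ⟨n, hn⟩ := htr.exists_smul_eq a (g • a)
    have hn' : (n : G) • a = g • a := hn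
    have : (n : G)⁻¹ * g ∈ stabilizer G a := by
      rw [mem_stabilizer_iff, mul_smul, ← hn', inv_smul_smul]
    have h3 := hle this
    have h4 := N.mul_mem n.2 h3
    simpa using h4

/-- A sharply 5-transitive group of degree 12 is simple of order 95040. -/
theorem simple_deg12 [Finite α] (h : IsSharp G α 5) (hn : Nat.card α = 12) :
    IsSimpleGroup G ∧ Nat.card G = 95040 := by
  letI := Fintype.ofFinite α
  have hn' : Fintype.card α = 12 := by rw [← Nat.card_eq_fintype_card, hn]
  have hcard : Nat.card G = 95040 := by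
    rw [h.card_eq (by omega), hn']
    rfl
  haveI : Finite G := by
    apply Nat.finite_of_card_ne_zero
    omega
  refine ⟨?_, hcard⟩
  haveI : Nontrivial G := Finite.one_lt_card_iff_nontrivial.mp (by omega)
  obtain ⟨a⟩ : Nonempty α := (Nat.card_pos_iff.mp (by omega)).1
  have hs := (simple_deg11 (h.stabilizer a) (by rw [card_ofStabilizer, hn])).1
  apply simple_of_stabilizer_simple (two_trans_of_sharp (k := 3) h (by omega))
    (fun g hg => eq_one_of_forall_fix h (by omega) hg) a hs (p := 2) (q := 3)
    (by norm_num) (by norm_num) (by norm_num) (by rw [hn]; norm_num) (by rw [hn]; norm_num)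

end Cfsg.Agent.Lib.Sharp.Simple
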